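/-
Shared definitions for the local structure at the prime five of groups of Janko-four type.
-/
import Cfsg.Prelude.Def_Spor_Mathieu
import Cfsg.Prelude.Def_JankoFourType

set_option autoImplicit false

universe u

namespace CfsgLib.J4Five49

/-- The abstract data on the centralizer `X` of an element of order five: `Q` is the central subgroup
of order five, `Cls` the class of involutions fused to the given one in the whole group, `O` the
extraspecial 2-core of the centralizer of `z`, `p` an element of order three, `bound` the bound on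
centralizers of the other involutions. -/
structure FiveData (X : Type u) [Group X] where
  Q : Subgroup X
  cardQ : Nat.card Q = 5
  central : Q ≤ Subgroup.center X
  Cls : X → Prop
  cls_sq : ∀ x, Cls x → x * x = 1
  cls_ne : ∀ x, Cls x → x ≠ 1
  cls_conj : ∀ x g, Cls x → Cls (g * x * g⁻¹)
  cls_trans : ∀ x y, Cls x → Cls y → ∃ g, g * x * g⁻¹ = y
  z : X
  hz : Cls z
  O : Subgroup X
  zO : z ∈ O
  O_le : ∀ o ∈ O, Commute o z
  cardO : Nat.card O = 32
  cardCz : Nat.card (Subgroup.centralizer ({z} : Set X)) = 960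
  normO : ∀ g, Commute g z → ∀ o ∈ O, g * o * g⁻¹ ∈ O
  sqO : ∀ a ∈ O, a * a = 1 ∨ a * a = z
  commO : ∀ a ∈ O, ∀ b ∈ O, a * b * a⁻¹ * b⁻¹ = 1 ∨ a * b * a⁻¹ * b⁻¹ = z
  centO : ∀ a ∈ O, (∀ b ∈ O, Commute a b) → a = 1 ∨ a = z
  p : X
  pz : Commute p z
  p3 : p ^ 3 = 1
  pne : p ≠ 1
  fixp : ∀ o ∈ O, Commute o p → o = 1 ∨ o = z
  inv : ∃ h, Commute h z ∧ h * p * h⁻¹ * p ∈ O
  bound : ∀ t, t * t = 1 → t ≠ 1 → ¬ Cls t → Nat.card (Subgroup.centralizer ({t} : Set X)) ≤ 80
  exX : ∃ x ∈ O, x ≠ z ∧ Cls x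
  four : ∃ T : Subgroup X, (∀ a ∈ T, a * a = 1) ∧ Nat.card T = 8 ∧ z ∈ T ∧
    (∃ t ∈ T, t ≠ 1 ∧ ¬ Cls t) ∧ Nat.card {a : X // a ∈ T ∧ Cls a} ≠ 3

/-- The first half of the analysis: the order of `X` and the normal elementary subgroup of order
eight whose involutions form the class `Cls`. -/
structure CoreData {X : Type u} [Group X] (d : FiveData X) where
  A : Subgroup X
  normal : A.Normal
  cardA : Nat.card A = 8
  sqA : ∀ a ∈ A, a * a = 1
  clsA : ∀ a, d.Cls a ↔ a ∈ A ∧ a ≠ 1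
  centA : Subgroup.centralizer (A : Set X) = A ⊔ d.Q
  cardX : Nat.card X = 6720

/-- The conclusion on the centralizers of the involutions of the second class (as in S5569). -/
def SecondHyp {G : Type u} [Group G] (z : G) : Prop :=
  ∀ t : G, orderOf t = 2 → ¬ IsConj z t →
    ∃ V K : Subgroup G, V ≤ Subgroup.centralizer ({t} : Set G) ∧ K ≤ Subgroup.centralizer ({t} : Set G) ∧
      Subgroup.centralizer ({t} : Set G) ≤ Subgroup.normalizer (V : Set G) ∧
      Cfsg.IsElementaryAbelian 2 V ∧ Nat.card ↥V = 2 ^ 11 ∧ K ⊓ V = ⊥ ∧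
      K ⊔ V = Subgroup.centralizer ({t} : Set G) ∧ Nonempty (↥K ≃* MulAut ↥Cfsg.Spor.M22)

/-- The conclusion on the two orbits on an elementary subgroup of order `2 ^ 11` (as in S5568). -/
def OrbitHyp {G : Type u} [Group G] (z : G) : Prop :=
  ∀ V : Subgroup G, Cfsg.IsElementaryAbelian 2 V → Nat.card ↥V = 2 ^ 11 →
    ∃ z' t : G, z' ∈ V ∧ t ∈ V ∧ t ≠ 1 ∧ IsConj z z' ∧ ¬ IsConj z t ∧
      Set.ncard {v : G | ∃ n ∈ Subgroup.normalizer (V : Set G), n * z' * n⁻¹ = v} = 1771 ∧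
      Set.ncard {v : G | ∃ n ∈ Subgroup.normalizer (V : Set G), n * t * n⁻¹ = v} = 276 ∧
      Subgroup.centralizer ({t} : Set G) ≤ Subgroup.normalizer (V : Set G)

end CfsgLib.J4Five49
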