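import Cfsg.Agent.J4Five49.Basic
import Cfsg.Agent.J4Facts21.M22
import Cfsg.Agent.J4Type67.Elementary

/-!
Elements of order five in the centralisers of the involutions of the second class: with the
structure `2^11 : Aut M22` of these centralisers and the two orbits 1771 and 276 on the elementary
subgroup of order `2^11` as hypotheses.
-/

set_option autoImplicit false

universe u

namespace CfsgLib.J4Five49

open CfsgLib.J4Type67

variable {G : Type u} [Group G] [Finite G]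

omit [Finite G] in
private theorem conj_pow_iterate {s : Set G} {q : G} (f : Function.End ↥s)
    (hf : ∀ x : ↥s, (f x : G) = q * x * q⁻¹) (k : ℕ) (x : ↥s) :
    ((f ^ k) x : G) = q ^ k * x * (q ^ k)⁻¹ := by
  induction k generalizing x with
  | zero => simp [Function.End.one_def]
  | succ n ih =>
    rw [pow_succ, pow_succ]
    change ((f ^ n) (f x) : G) = _
    rw [ih, hf]
    group

/-- Counting the fixed points of an element of order five acting by conjugation. -/
theorem modEq_fixed {s : Set G} {q : G} (hq : q ^ 5 = 1) (hs : ∀ x ∈ s, q * x * q⁻¹ ∈ s) :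
    Nat.card ↥s ≡ Nat.card {x : G // x ∈ s ∧ Commute q x} [MOD 5] := by
  classical
  haveI : Fact (Nat.Prime 5) := ⟨by norm_num⟩
  haveI := Fintype.ofFinite ↥s
  let f : Function.End ↥s := fun x => ⟨q * x * q⁻¹, hs x x.2⟩
  have hf : f ^ 5 ^ 1 = 1 := by
    funext x
    apply Subtype.ext
    rw [conj_pow_iterate f (fun _ => rfl), pow_one, hq, one_mul, inv_one, mul_one]
    rfl
  have h := Equiv.Perm.card_fixedPoints_modEq hf
  rw [Fintype.card_eq_nat_card, Fintype.card_eq_nat_card] at h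
  refine h.trans ?_
  rw [Nat.card_congr (α := ↥f.fixedPoints) (β := {x : G // x ∈ s ∧ Commute q x})
    ⟨fun x => ⟨x.1.1, x.1.2, ?_⟩, fun x => ⟨⟨x.1, x.2.1⟩, ?_⟩, fun x => rfl, fun x => rfl⟩]
  · have hx : q * (x.1 : G) * q⁻¹ = x.1 := congrArg Subtype.val x.2
    show q * (x.1 : G) = x.1 * q
    conv_rhs => rw [← hx]
    group
  · show f ⟨x.1, x.2.1⟩ = ⟨x.1, x.2.1⟩
    apply Subtype.ext
    show q * x.1 * q⁻¹ = x.1
    rw [x.2.2, mul_inv_cancel_right]

/-- The automorphism group of `M22` has trivial centre. -/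
theorem eq_one_of_central {a : MulAut M} (h : ∀ b : MulAut M, Commute a b) : a = 1 := by
  refine MulEquiv.ext fun s => conj_injective_M (MulEquiv.ext fun y => ?_)
  obtain ⟨w, rfl⟩ := a.surjective y
  have := congrArg (fun φ : MulAut M => φ w) (h (MulAut.conj s)).eq
  simp only [MulAut.mul_apply, MulAut.conj_apply, map_mul, map_inv] at this
  simpa [MulAut.conj_apply] using this

/-- The centraliser of an element of order five in `Aut M22`. -/
theorem card_aut_cent {a : MulAut M} (ha : orderOf a = 5) :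
    Nat.card (Subgroup.centralizer ({a} : Set (MulAut M))) = 10 := by
  have h5 : a ^ 5 = 1 := ha ▸ pow_orderOf_eq_one a
  have hmem : a ∈ (MulAut.conj : M →* MulAut M).range := by
    have h2 := Subgroup.mul_self_mem_of_index_two inn_index a
    have h6 : a = (a * a) ^ 3 := by
      rw [← pow_two, ← pow_mul, show 2 * 3 = 5 + 1 by norm_num, pow_succ, h5, one_mul]
    rw [h6]
    exact pow_mem h2 3
  obtain ⟨s, rfl⟩ := hmem
  rw [orderOf_injective _ conj_injective_M] at ha
  exact CfsgLib.J4Facts21.five_autCent ha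

/-- The centraliser of an involution of the second class as an extension. -/
theorem exists_split {z : G} (hS : SecondHyp z) {t : G} (ht : orderOf t = 2) (hn : ¬ IsConj z t) :
    ∃ (V : Subgroup G) (ρ : ↥(Subgroup.centralizer ({t} : Set G)) →* MulAut M),
      V ≤ Subgroup.centralizer ({t} : Set G) ∧
      Subgroup.centralizer ({t} : Set G) ≤ Subgroup.normalizer (V : Set G) ∧
      Cfsg.IsElementaryAbelian 2 V ∧ Nat.card ↥V = 2 ^ 11 ∧ Function.Surjective ρ ∧
      ∀ x, ρ x = 1 ↔ (x : G) ∈ V := by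
  obtain ⟨V, K, hV, hK, hN, hEl, hcard, hdisj, hsup, ⟨e⟩⟩ := hS t ht hn
  generalize hC : Subgroup.centralizer ({t} : Set G) = C at hV hK hN hsup ⊢
  haveI hVn : (V.subgroupOf C).Normal := Subgroup.normal_subgroupOf_of_le_normalizer hN
  have hcomp : Subgroup.IsComplement' (K.subgroupOf C) (V.subgroupOf C) := by
    refine Subgroup.isComplement'_of_disjoint_and_mul_eq_univ ?_ ?_
    · rw [disjoint_iff, eq_bot_iff]
      rintro x ⟨hxK, hxV⟩
      have : (x : G) ∈ K ⊓ V := ⟨hxK, hxV⟩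
      rw [hdisj, Subgroup.mem_bot] at this
      exact Subgroup.mem_bot.2 (Subtype.ext this)
    · refine Set.eq_univ_of_forall fun x => ?_
      have hx : (x : G) ∈ K ⊔ V := by rw [hsup]; exact x.2
      rw [← SetLike.mem_coe, Subgroup.coe_mul_of_left_le_normalizer_right K V (hK.trans hN)] at hx
      obtain ⟨k, hk, v, hv, hkv⟩ := hx
      exact ⟨⟨k, hK hk⟩, hk, ⟨v, hV hv⟩, hv, Subtype.ext hkv⟩
  let i : ↥C ⧸ V.subgroupOf C ≃* MulAut M :=
    (hcomp.QuotientMulEquiv).trans ((Subgroup.subgroupOfEquivOfLe hK).trans e)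
  refine ⟨V, i.toMonoidHom.comp (QuotientGroup.mk' _), hV, hN, hEl, hcard,
    i.surjective.comp (QuotientGroup.mk'_surjective _), fun x => ?_⟩
  simp [Subgroup.mem_subgroupOf]

theorem not_two_pow_twenty_dvd {z : G} (hS : SecondHyp z) {t : G} (ht : orderOf t = 2)
    (hn : ¬ IsConj z t) :
    ¬ 2 ^ 20 ∣ Nat.card (Subgroup.centralizer ({t} : Set G)) := by
  obtain ⟨V, ρ, hV, -, -, hcard, hsurj, hρ⟩ := exists_split hS ht hn
  have hker : ρ.ker = V.subgroupOf _ := by
    ext x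
    rw [MonoidHom.mem_ker, hρ, Subgroup.mem_subgroupOf]
  have h := ρ.ker.card_mul_index
  rw [Subgroup.index_ker, MonoidHom.range_eq_top.2 hsurj, Subgroup.card_top, Setup.card_mulAut, hker,
    Nat.card_congr (Subgroup.subgroupOfEquivOfLe hV).toEquiv, hcard] at h
  rw [← h]
  norm_num

/-- An element of order five normalising an elementary subgroup of order `2^11` whose
involutions fall into the two orbits. -/
theorem fixed_eight {z : G} (hO : OrbitHyp z)
    (h5 : ∀ z' q : G, IsConj z z' → orderOf q = 5 → Commute q z' →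
      Nat.card ↥(Subgroup.centralizer ({q} : Set G) ⊓ Subgroup.centralizer ({z'} : Set G)) = 960)
    {V : Subgroup G} (hEl : Cfsg.IsElementaryAbelian 2 V) (hV : Nat.card ↥V = 2 ^ 11)
    {q : G} (hq : orderOf q = 5) (hN : q ∈ Subgroup.normalizer (V : Set G)) :
    Nat.card ↥(V ⊓ Subgroup.centralizer ({q} : Set G)) = 8 ∧
      (∃ z', z' ∈ V ⊓ Subgroup.centralizer ({q} : Set G) ∧ IsConj z z') ∧
      Nat.card {a : G // a ∈ V ⊓ Subgroup.centralizer ({q} : Set G) ∧ IsConj z a} % 5 = 1 := by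
  haveI : Fact (Nat.Prime 2) := ⟨Nat.prime_two⟩
  obtain ⟨z₀, t₀, hz₀, ht₀, ht1, hc, hn, h1, h2, -⟩ := hO V hEl hV
  have hq5 : q ^ 5 = 1 := hq ▸ pow_orderOf_eq_one q
  have hconjV : ∀ x ∈ V, q * x * q⁻¹ ∈ V := fun x hx => (Subgroup.mem_normalizer_iff.1 hN x).1 hx
  set o1 := {v : G | ∃ n ∈ Subgroup.normalizer (V : Set G), n * z₀ * n⁻¹ = v} with ho1
  set o2 := {v : G | ∃ n ∈ Subgroup.normalizer (V : Set G), n * t₀ * n⁻¹ = v} with ho2
  set S : Set G := {v | v ∈ V ∧ IsConj z v} with hSdef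
  have horb : ∀ a ∈ V, ∀ n ∈ Subgroup.normalizer (V : Set G), n * a * n⁻¹ ∈ V := fun a ha n hn =>
    (Subgroup.mem_normalizer_iff.1 hn a).1 ha
  have ho1S : o1 ⊆ S := by
    rintro _ ⟨n, hn', rfl⟩
    exact ⟨horb _ hz₀ n hn', hc.trans (isConj_iff.2 ⟨n, rfl⟩)⟩
  have ho2V : o2 ⊆ {v | v ∈ V ∧ ¬ IsConj z v ∧ v ≠ 1} := by
    rintro _ ⟨n, hn', rfl⟩
    exact ⟨horb _ ht₀ n hn', fun h => hn (h.trans (IsConj.symm (isConj_iff.2 ⟨n, rfl⟩))),
      fun h => ht1 (conj_eq_one_iff.1 h)⟩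
  have hz1 : z ≠ 1 := by
    rintro rfl
    have h1' : z₀ = 1 := isConj_one_right.1 hc
    have : o1 ⊆ {1} := by
      rintro _ ⟨n, -, rfl⟩
      simp [h1']
    have := Set.ncard_le_ncard this
    rw [h1, Set.ncard_singleton] at this
    omega
  have hS1771 : Nat.card ↥S = 1771 := by
    rw [Nat.card_coe_set_eq]
    have hsub : S ∪ o2 ∪ {1} ⊆ (V : Set G) := by
      rintro x ((hx | hx) | hx)
      · exact hx.1
      · exact (ho2V hx).1
      · rw [Set.mem_singleton_iff.1 hx]; exact V.one_mem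
    have hd1 : Disjoint S o2 := Set.disjoint_left.2 fun x hx hx' => (ho2V hx').2.1 hx.2
    have hd2 : Disjoint (S ∪ o2) {1} := by
      rw [Set.disjoint_singleton_right]
      rintro (hx | hx)
      · exact hz1 (isConj_one_left.1 hx.2)
      · exact (ho2V hx).2.2 rfl
    have h3 := Set.ncard_le_ncard hsub
    rw [Set.ncard_union_eq hd2, Set.ncard_union_eq hd1, h2, Set.ncard_singleton,
      ← Nat.card_coe_set_eq (V : Set G), SetLike.coe_sort_coe, hV] at h3
    have h4 := Set.ncard_le_ncard ho1S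
    omega
  have hfix : ∀ x : G, x ∈ Subgroup.centralizer ({q} : Set G) ↔ Commute q x := fun x => by
    rw [Subgroup.mem_centralizer_singleton_iff]
    exact ⟨fun h => h.symm, fun h => h.symm⟩
  have hmodS := modEq_fixed hq5 (s := S) fun x hx =>
    ⟨hconjV x hx.1, hx.2.trans (isConj_iff.2 ⟨q, rfl⟩)⟩
  have hmodV := modEq_fixed hq5 (s := (V : Set G)) hconjV
  have hcount : Nat.card {a : G // a ∈ V ⊓ Subgroup.centralizer ({q} : Set G) ∧ IsConj z a} % 5
      = 1 := by
    rw [Nat.card_congr (Equiv.subtypeEquivRight (q := fun x => x ∈ S ∧ Commute q x) fun x => by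
      simp only [Subgroup.mem_inf, hfix, hSdef, Set.mem_setOf_eq]; tauto)]
    have h : Nat.card ↥S % 5 = _ % 5 := hmodS
    rw [hS1771] at h
    omega
  obtain ⟨z', hz'T, hz'c⟩ :
      ∃ z', z' ∈ V ⊓ Subgroup.centralizer ({q} : Set G) ∧ IsConj z z' := by
    by_contra hne
    haveI : IsEmpty {a : G // a ∈ V ⊓ Subgroup.centralizer ({q} : Set G) ∧ IsConj z a} :=
      ⟨fun a => hne ⟨a.1, a.2⟩⟩
    rw [Nat.card_of_isEmpty] at hcount
    omega
  refine ⟨?_, ⟨z', hz'T, hz'c⟩, hcount⟩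
  have hT5 : Nat.card ↥(V ⊓ Subgroup.centralizer ({q} : Set G)) % 5 = 3 := by
    have h : Nat.card ↥(V : Set G) % 5 = _ % 5 := hmodV
    rw [SetLike.coe_sort_coe, hV, Nat.card_congr (Equiv.subtypeEquivRight
      (q := fun x => x ∈ V ⊓ Subgroup.centralizer ({q} : Set G)) fun x => by
        simp only [Subgroup.mem_inf, hfix, SetLike.mem_coe])] at h
    omega
  obtain ⟨j, -, hj⟩ := (Nat.dvd_prime_pow Nat.prime_two).1
    (hV ▸ Subgroup.card_dvd_of_le (inf_le_left : V ⊓ Subgroup.centralizer ({q} : Set G) ≤ V))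
  haveI := hEl.1
  have hle : V ⊓ Subgroup.centralizer ({q} : Set G) ≤
      Subgroup.centralizer ({q} : Set G) ⊓ Subgroup.centralizer ({z'} : Set G) := fun x hx =>
    ⟨hx.2, Subgroup.mem_centralizer_singleton_iff.2
      (congrArg Subtype.val (mul_comm' (⟨x, hx.1⟩ : ↥V) ⟨z', hz'T.1⟩))⟩
  have h960 := Subgroup.card_dvd_of_le hle
  rw [h5 z' q hz'c hq ((hfix z').1 hz'T.2), hj] at h960
  rw [hj] at hT5 ⊢
  have hj6 : j ≤ 6 := by
    by_contra hlt
    have := (pow_dvd_pow 2 (by omega : 7 ≤ j)).trans h960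
    norm_num at this
  interval_cases j <;> simp_all

theorem card_second_le {z : G} (hz : orderOf z = 2) (hS : SecondHyp z) (hO : OrbitHyp z)
    (h5 : ∀ z' q : G, IsConj z z' → orderOf q = 5 → Commute q z' →
      Nat.card ↥(Subgroup.centralizer ({q} : Set G) ⊓ Subgroup.centralizer ({z'} : Set G)) = 960)
    {q t : G} (hq : orderOf q = 5) (ht : orderOf t = 2) (hn : ¬ IsConj z t) (hc : Commute q t) :
    Nat.card ↥(Subgroup.centralizer ({q} : Set G) ⊓ Subgroup.centralizer ({t} : Set G)) ≤ 80 := by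
  clear hz
  obtain ⟨V, ρ, hV, hN, hEl, hcard, -, hρ⟩ := exists_split hS ht hn
  have hqC : q ∈ Subgroup.centralizer ({t} : Set G) :=
    Subgroup.mem_centralizer_singleton_iff.2 hc.eq
  obtain ⟨h8, -, -⟩ := fixed_eight hO h5 hEl hcard hq (hN hqC)
  let ψ := ρ.comp (Subgroup.inclusion
    (inf_le_right : Subgroup.centralizer ({q} : Set G) ⊓ Subgroup.centralizer ({t} : Set G) ≤ _))
  have hrq : orderOf (ρ ⟨q, hqC⟩) = 5 := by
    haveI : Fact (Nat.Prime 5) := ⟨by norm_num⟩
    refine orderOf_eq_prime ?_ fun h => ?_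
    · rw [← map_pow]
      convert map_one ρ
      exact Subtype.ext (by simpa using hq ▸ pow_orderOf_eq_one q)
    · have h2 := hEl.2 q ((hρ _).1 h)
      have := orderOf_dvd_of_pow_eq_one h2
      rw [hq] at this
      norm_num at this
  have hran : Nat.card ↥ψ.range ≤ 10 := by
    rw [← card_aut_cent hrq]
    refine Subgroup.card_le_of_le ?_
    rintro _ ⟨x, rfl⟩
    rw [Subgroup.mem_centralizer_singleton_iff]
    show ρ _ * ρ _ = ρ _ * ρ _
    rw [← map_mul, ← map_mul]
    exact congrArg ρ (Subtype.ext (Subgroup.mem_centralizer_singleton_iff.1 x.2.1))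
  have hker : Nat.card ↥ψ.ker ≤ 8 := by
    rw [← h8]
    refine Nat.card_le_card_of_injective
      (fun x => ⟨(x.1 : G), ⟨(hρ _).1 (MonoidHom.mem_ker.1 x.2), x.1.2.1⟩⟩) ?_
    intro x y h
    exact Subtype.ext (Subtype.ext (congrArg Subtype.val h :))
  have h := ψ.ker.card_mul_index
  rw [Subgroup.index_ker] at h
  rw [← h]
  exact Nat.mul_le_mul hker hran

theorem exists_four {z : G} (hz : orderOf z = 2) (hS : SecondHyp z) (hO : OrbitHyp z)
    (h5 : ∀ z' q : G, IsConj z z' → orderOf q = 5 → Commute q z' →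
      Nat.card ↥(Subgroup.centralizer ({q} : Set G) ⊓ Subgroup.centralizer ({z'} : Set G)) = 960)
    (hT : ∃ t : G, orderOf t = 2 ∧ ¬ IsConj z t) :
    ∃ (q z' : G) (T : Subgroup G), orderOf q = 5 ∧ IsConj z z' ∧ z' ∈ T ∧
      T ≤ Subgroup.centralizer ({q} : Set G) ∧
      (∀ a ∈ T, a * a = 1) ∧ Nat.card T = 8 ∧ (∃ t ∈ T, t ≠ 1 ∧ ¬ IsConj z t) ∧
      Nat.card {a : G // a ∈ T ∧ IsConj z a} ≠ 3 := by
  clear hz
  obtain ⟨t, ht, hn⟩ := hT
  obtain ⟨V, ρ, hV, hN, hEl, hcard, hsurj, hρ⟩ := exists_split hS ht hn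
  haveI : Fact (Nat.Prime 5) := ⟨by norm_num⟩
  obtain ⟨q', hq'⟩ := exists_prime_orderOf_dvd_card'
    (G := ↥(Subgroup.centralizer ({t} : Set G))) 5 (by
      refine dvd_trans ?_ (Subgroup.card_dvd_of_surjective ρ hsurj)
      rw [Setup.card_mulAut]; norm_num)
  have hq : orderOf (q' : G) = 5 := by rw [Subgroup.orderOf_coe, hq']
  obtain ⟨h8, ⟨z', hz', hzc⟩, hcount⟩ := fixed_eight hO h5 hEl hcard hq (hN q'.2)
  have htC : t ∈ Subgroup.centralizer ({t} : Set G) :=
    Subgroup.mem_centralizer_singleton_iff.2 rfl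
  have htV : t ∈ V := (hρ ⟨t, htC⟩).1 (eq_one_of_central fun b => by
    obtain ⟨y, rfl⟩ := hsurj b
    show ρ _ * ρ y = ρ y * ρ _
    rw [← map_mul, ← map_mul]
    exact congrArg ρ (Subtype.ext (Subgroup.mem_centralizer_singleton_iff.1 y.2).symm))
  have htq : t ∈ Subgroup.centralizer ({(q' : G)} : Set G) :=
    Subgroup.mem_centralizer_singleton_iff.2 (Subgroup.mem_centralizer_singleton_iff.1 q'.2).symm
  refine ⟨q', z', V ⊓ Subgroup.centralizer ({(q' : G)} : Set G), hq, hzc, hz', inf_le_right,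
    fun a ha => by rw [← pow_two]; exact hEl.2 a ha.1, h8,
    ⟨t, ⟨htV, htq⟩, fun h => by simp [h] at ht, hn⟩, ?_⟩
  omega

end CfsgLib.J4Five49
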