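import Cfsg.Agent.J4Type67.Elementary
import Cfsg.Agent.Jf18.M22

/-!
An involution of the extraspecial group centralised by an element of order five and by a subgroup
of order `2 ^ 20`: the vector fixed by a Sylow 2-subgroup lies in the fixed space of a duad group,
which the element of order five normalising the duad group fixes pointwise.
-/

set_option autoImplicit false

namespace CfsgLib.J4Five49

open CfsgLib.J4Type67 CfsgLib.Mathieu CfsgLib.Mathieu.Code

universe u v

/-- The certificate element has order five. -/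
theorem hexFive_pow : el hexFive ^ 5 = 1 ∧ el hexFive ≠ 1 := by
  obtain ⟨u, x, y, N, -, h5, rfl, -⟩ := hex_five
  refine ⟨?_, ?_⟩
  · rw [← h5]; exact pow_orderOf_eq_one _
  · intro h
    rw [h, orderOf_one] at h5
    norm_num at h5

/-- An element of order five in the normaliser of the duad group fixes its fixed space. -/
theorem exists_five_fix_duad {X : Type u} {W : Type v} [Group X] [Group W] (r : Rep X W) :
    ∃ x : X, x ^ 5 = 1 ∧ x ≠ 1 ∧ r.proj x = el duadFive ∧ ∀ w ∈ r.F duad, r.act x w = w := by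
  have := r.finite_W
  obtain ⟨h1, h2, h3, h4, h5, h6, h7⟩ := duad_data
  have hn' : elOK duadFour = true := by simp only [normCheck', Bool.and_eq_true] at h3; exact h3.1
  have e : el fiveMove * el hexFive * (el fiveMove)⁻¹ = el duadFive :=
    eq_el h1 ((cm_conj_el h4 hex_normal_data.1).trans h5)
  set f := el duadFive
  set n := el duadFour
  have hv : conjS f duad = duad := conjS_eq basis_ok.2.2.2.1 h2
  have hn : conjS n duad = duad := conjS_eq basis_ok.2.2.2.1 h3
  have hn4 : n ^ 4 = 1 := cm_injective (by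
    rw [cm_one, ← h7, ← cm_word (L := [duadFour]) (by simp [hn'])]
    simp [n, pow_succ, mul_assoc])
  have hrel : n * f * n⁻¹ = f * f :=
    cm_injective (by rw [cm_conj_el hn' h1, h6, cm_mul, (el_spec h1).1])
  obtain ⟨e5, he5⟩ := hexFive_pow
  have hf5 : f ^ 5 = 1 := by rw [← e, conj_pow, e5, mul_one, mul_inv_cancel]
  have hf1 : f ≠ 1 := fun h => he5 (by
    rw [← e] at h
    exact conj_eq_one_iff.1 h)
  obtain ⟨u, hu, hu5⟩ := r.exists_lift_five (m := f) hf5
  refine ⟨u, hu5, fun h => hf1 (by rw [← hu, h, map_one]), hu, ?_⟩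
  obtain ⟨y, hy⟩ := r.surj n
  set m := y ^ 9
  have hm : r.proj m = n := by
    rw [map_pow, hy, show 9 = 4 * 2 + 1 by rfl, pow_succ, pow_mul, hn4, one_pow, one_mul]
  have hm4 : m ^ 4 = 1 := by
    obtain ⟨i, hi⟩ := r.exists_pow (x := y ^ 4) (by rw [map_pow, hy, hn4])
    rw [← pow_mul, show 9 * 4 = 4 * 9 by rfl, pow_mul, hi, ← zpow_natCast, ← zpow_mul, mul_comm,
      zpow_mul, zpow_natCast, show r.p ^ 9 = 1 by rw [show (9:ℕ) = 3 * 3 by rfl, pow_mul, r.cube,
      one_pow], one_zpow]
  have hmu : m * u * m⁻¹ = u * u := by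
    refine r.lift_five_unique ?_ ?_ ?_
    · rw [map_mul, map_mul, map_inv, map_mul, hm, hu]; exact hrel
    · rw [conj_pow, hu5, mul_one, mul_inv_cancel]
    · rw [← pow_two, ← pow_mul, show 2 * 5 = 5 * 2 by rfl, pow_mul, hu5, one_pow]
  set S := r.F duad
  have hSu : ∀ w ∈ S, r.act u w ∈ S := fun w hw => r.F_invariant (hu.symm ▸ hv) hw
  have hSm : ∀ w ∈ S, r.act m w ∈ S := fun w hw => r.F_invariant (hm.symm ▸ hn) hw
  have hPI : r.PInv S := r.pinv_fixed _
  -- the square of the element of order four fixes the space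
  obtain ⟨k, -, hk⟩ := r.exists_le_six hPI
  have hk2 : k ≤ 2 := by
    obtain ⟨g, hg⟩ := duad_gen
    have h64 : Nat.card S ≤ 64 := r.card_F_le sq_duad hg
    have hne : Nat.card S ≠ 64 := r.card_F_duad
    rw [hk] at h64 hne
    have : k ≤ 3 := by
      by_contra h
      have := (Nat.pow_le_pow_right (by norm_num : 0 < 4) (show 4 ≤ k by omega)).trans h64
      norm_num at this
    interval_cases k <;> simp_all
  set K1 := S ⊓ r.fixed {m}
  set K2 := S ⊓ r.fixed {m * m}
  obtain ⟨a, -, ha⟩ := r.exists_le_six (r.pinv_inf hPI (r.pinv_fixed {m}))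
  obtain ⟨b, -, hb⟩ := r.exists_le_six (r.pinv_inf hPI (r.pinv_fixed {m * m}))
  have hK12 : K1 ≤ K2 := fun w hw => ⟨hw.1, r.mem_fixed_single.2 (by
    rw [r.act_mul, r.mem_fixed_single.1 hw.2, r.mem_fixed_single.1 hw.2])⟩
  have hK1 : K1 ≠ ⊥ := by
    intro h
    have h1 := r.card_fixed_modEq S m hSm (q := 2) (n := 2) Nat.prime_two
      (by rw [show (2 : ℕ) ^ 2 = 4 by norm_num]; exact hm4)
    rw [show S ⊓ r.fixed {m} = ⊥ from h, Subgroup.card_bot, hk] at h1
    rcases k.eq_zero_or_pos with rfl | h0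
    · exact r.F_ne_bot sq_duad (Subgroup.card_eq_one.1 (by rw [show r.F duad = S from rfl, hk]; rfl))
    · have : 4 ^ k % 2 = 0 := by
        rw [Nat.pow_mod]; simp [Nat.zero_pow h0]
      rw [Nat.ModEq, this] at h1
      simp at h1
  have hfix : ∀ w ∈ S, r.act (m * m) w = w := by
    intro w hw
    by_contra hne
    have hm4' : ∀ v : W, r.act m (r.act m (r.act m (r.act m v))) = v := fun v => by
      rw [← r.act_mul, ← r.act_mul, ← r.act_mul,
        show m * m * m * m = m ^ 4 by simp [pow_succ], hm4, r.act_one]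
    have hlt : ∃ v, v ∈ K2 ∧ v ∉ K1 := by
      set y1 := r.act m (r.act m w) * w with hy1
      have hy1S : y1 ∈ S := mul_mem (hSm _ (hSm _ hw)) hw
      have hy12 : y1 ∈ K2 := ⟨hy1S, r.mem_fixed_single.2 (by
        rw [hy1, r.act_mul, map_mul, map_mul, hm4', r.comm])⟩
      by_cases h : y1 ∈ K1
      · refine ⟨r.act m w * w, ⟨mul_mem (hSm _ hw) hw, r.mem_fixed_single.2 ?_⟩, ?_⟩
        · have h' := r.mem_fixed_single.1 h.2
          have : r.act m y1 * y1 = 1 := by rw [h', r.sq]
          rw [r.act_mul, ← mul_inv_eq_one, r.inv_eq, map_mul, map_mul]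
          rw [hy1, map_mul] at this
          rw [← this, mul_assoc (r.act m (r.act m (r.act m w))) (r.act m w),
            mul_assoc (r.act m (r.act m (r.act m w))) (r.act m (r.act m w)),
            ← mul_assoc (r.act m (r.act m w)), r.comm (r.act m (r.act m w)) (r.act m w), mul_assoc]
        · intro h2
          have h2' := r.mem_fixed_single.1 h2.2
          refine hne ?_
          rw [map_mul] at h2'
          rw [r.act_mul]
          have : r.act m (r.act m w) * r.act m w * r.act m w = r.act m w * w * r.act m w := by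
            rw [h2']
          rwa [mul_assoc, r.sq, mul_one, r.comm (r.act m w) w, mul_assoc, r.sq, mul_one] at this
      · exact ⟨y1, hy12, h⟩
    obtain ⟨v, hv2, hv1⟩ := hlt
    have ha1 : 1 ≤ a := by
      refine Nat.pos_of_ne_zero fun h => hK1 (Subgroup.card_eq_one.1 ?_)
      rw [show Nat.card K1 = 4 ^ a from ha, h, pow_zero]
    have hab : a < b := by
      by_contra h
      exact hv1 ((Subgroup.eq_of_le_of_card_ge hK12 (by
        rw [show Nat.card K1 = 4 ^ a from ha, show Nat.card K2 = 4 ^ b from hb]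
        exact Nat.pow_le_pow_right (by norm_num) (by omega))) ▸ hv2)
    have htop : K2 = S := Subgroup.eq_of_le_of_card_ge inf_le_left (by
      rw [hk, show Nat.card K2 = 4 ^ b from hb]
      exact Nat.pow_le_pow_right (by norm_num) (by omega))
    rw [← htop] at hw
    exact hne (r.mem_fixed_single.1 hw.2)
  -- conjugation by it inverts the element of order five
  intro w hw
  have hinv : m * m * u * (m * m)⁻¹ = u ^ 4 := by
    rw [show m * m * u * (m * m)⁻¹ = m * (m * u * m⁻¹) * m⁻¹ by group, hmu,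
      show m * (u * u) * m⁻¹ = (m * u * m⁻¹) * (m * u * m⁻¹) by group, hmu]
    simp [pow_succ, mul_assoc]
  have hmi : ∀ v ∈ S, r.act (m * m)⁻¹ v = v := fun v hv => by
    conv_lhs => rw [← hfix v hv]
    rw [r.act_inv_act]
  have h4 : r.act (u ^ 4) w = r.act u w := by
    rw [← hinv, r.act_mul, hmi w hw, r.act_mul, hfix _ (hSu w hw)]
  have h2 : r.act (u * u) w = w := by
    have := congrArg (r.act u) h4
    rw [← r.act_mul, ← pow_succ', hu5, r.act_one, ← r.act_mul] at this
    exact this.symm
  calc r.act u w = r.act (u ^ 6) w := by rw [pow_succ, hu5, one_mul]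
    _ = w := by
      rw [show u ^ 6 = u * u * (u * u) * (u * u) by simp [pow_succ, mul_assoc], r.act_mul,
        r.act_mul, h2, h2, h2]

/-- An involution of the Sylow subgroup whose product with the element of order five normalising
the duad group has order three. -/
theorem exists_involution_three : ∃ a ∈ syl, a * a = 1 ∧ orderOf (a * el duadFive) = 3 := by
  obtain ⟨h1, -⟩ := duad_data
  obtain ⟨-, -, -, -, -, -, h7, -, -, -, -⟩ := basis_ok
  have hc : (invList.any fun a =>
      cmpC (cmpC (cmpC a duadFive.1) (cmpC a duadFive.1)) (cmpC a duadFive.1) == idC &&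
        cmpC a duadFive.1 != idC) = true := by
    decide +kernel
  simp only [List.any_eq_true, Bool.and_eq_true, beq_iff_eq, bne_iff_ne, ne_eq] at hc
  obtain ⟨a, ha, h3, hne⟩ := hc
  simp only [invList, List.mem_filter, Bool.and_eq_true, beq_iff_eq, bne_iff_ne, ne_eq] at ha
  obtain ⟨ha, -, h2⟩ := ha
  obtain ⟨m, hm, hma⟩ : ∃ m ∈ syl, cm m = a := by
    obtain ⟨g, rfl⟩ := (spanSpec certM22.pc h7).exists_code a ha
    have hg : g ∈ grpOf certM22.pc := ((spanSpec certM22.pc h7).mem_iff g).2 ha
    exact ⟨⟨g, grpOf_le basis_ok.2.2.2.2.2.2.2.1 hg⟩, hg, rfl⟩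
  refine ⟨m, hm, cm_injective (by rw [cm_mul, hma, h2, cm_one]), ?_⟩
  haveI : Fact (Nat.Prime 3) := ⟨Nat.prime_three⟩
  have hb : cm (m * el duadFive) = cmpC a duadFive.1 := by rw [cm_mul, hma, (el_spec h1).1]
  refine orderOf_eq_prime (cm_injective ?_) fun h => hne (by rw [← hb, h, cm_one])
  rw [pow_three', cm_mul, cm_mul, hb, h3, cm_one]

variable {H : Type u} [Group H] [Finite H] (d : Setup H)

include d in
/-- A Sylow 2-subgroup of the centraliser has order `2 ^ 21`. -/
theorem card_sylow_two (T : Sylow 2 H) : Nat.card (T : Subgroup H) = 2 ^ 21 := by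
  have h := Subgroup.card_eq_card_quotient_mul_card_subgroup d.π.ker
  rw [Nat.card_congr (QuotientGroup.quotientKerEquivOfSurjective d.π d.surj).toEquiv,
    Setup.card_mulAut, d.cardKer] at h
  rw [Sylow.card_eq_multiplicity T, h, show 887040 * (3 * 2 ^ 13) = 2 ^ 21 * 10395 by norm_num,
    Nat.factorization_mul (by norm_num) (by norm_num), Nat.Prime.factorization_pow Nat.prime_two]
  simp [Nat.factorization_eq_zero_of_not_dvd (by norm_num : ¬(2 ∣ 10395))]

/-- The involution of the extraspecial group fixed by a Sylow 2-subgroup, an element of order five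
commuting with the element of order three and centralising it, and an element inducing an element
of order three on `M22` and fixing its image and the image of its conjugate. -/
theorem exists_fixed_data : ∃ q e y : H, orderOf q = 5 ∧ Commute q d.p ∧ e ∈ d.E ∧ e * e = 1 ∧
    e ∉ d.Z ∧ Commute e q ∧ 2 ^ 20 ∣ Nat.card (Subgroup.centralizer ({e} : Set H)) ∧
    y * e * y⁻¹ * e⁻¹ ∈ d.Z ∧
    y * (d.p * e * d.p⁻¹) * y⁻¹ * (d.p * e * d.p⁻¹)⁻¹ ∈ d.Z ∧ orderOf (d.π y) = 3 := by
  classical
  have : Fact (Nat.Prime 2) := ⟨Nat.prime_two⟩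
  have : Fact (Nat.Prime 5) := ⟨by norm_num⟩
  have := d.rep.finite_W
  obtain ⟨T⟩ : Nonempty (Sylow 2 H) := inferInstance
  -- a vector fixed by the Sylow subgroup
  obtain ⟨w, hwT, hw1⟩ : ∃ w : d.W, (∀ t ∈ (T : Subgroup H), d.actH t w = w) ∧ w ≠ 1 := by
    let _ : MulAction (T : Subgroup H) d.W :=
      { smul := fun t x => d.actH t.1 x
        one_smul := fun x => d.actHom_one x
        mul_smul := fun s t x => d.actHom_mul s.1 t.1 x }
    have h1 : (1 : d.W) ∈ MulAction.fixedPoints (T : Subgroup H) d.W := fun t => map_one (d.actH t.1)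
    obtain ⟨x, hx, hne⟩ := T.isPGroup'.exists_fixed_point_of_prime_dvd_card_of_fixed_point d.W
      (by rw [d.rep.card]; norm_num) h1
    exact ⟨x, fun t ht => hx ⟨t, ht⟩, Ne.symm hne⟩
  have hwF : ∀ A : Subgroup M, (∀ a ∈ A, a * a = 1) → A ≤ d.innPre T → w ∈ d.rep.F A := by
    intro A hA hAT x ⟨hx1, hx2⟩
    obtain ⟨t, ht, hta⟩ := d.mem_innPre.1 (hAT hx1)
    obtain ⟨c, -, hte, hσ, hcc⟩ := d.decomp T ht hta (hA _ hx1)
    rw [show x = QuotientGroup.mk c from d.rep.lift_two_unique (by exact hσ.symm) hx2 hcc,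
      ← d.act_decomp hte]
    exact hwT t ht
  -- a preimage
  obtain ⟨e, heE, hew⟩ := d.q_surj w
  have heZ : e ∉ d.Z := fun h => hw1 (hew ▸ d.q_one_iff.2 h)
  have he1 : e ≠ 1 := fun h => heZ (h ▸ one_mem _)
  have hez : e ≠ d.z := fun h => heZ (h ▸ Subgroup.mem_zpowers _)
  obtain ⟨S, hS⟩ := d.innPre_eq_sylow T
  -- it squares to one
  have hee : e * e = 1 := by
    obtain ⟨g, hgS, hcases⟩ := elem_in_sylow S
    rw [← hS] at hgS hcases
    obtain ⟨V, ⟨hVT, ⟨hVc, hVs⟩, hV⟩, -⟩ := d.existsUnique_elementary T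
    obtain ⟨-, hVE⟩ := d.shape T hcases hVT hVc hVs hV
    have hF := hwF (conjS g hex) (by
      rintro _ ⟨b, hb, rfl⟩
      rw [← map_mul, sq_hex b hb, map_one]) hgS
    have : e ∈ V ⊓ d.E := hVE ▸ d.mem_pre.2 ⟨heE, by rw [hew]; exact hF⟩
    exact hVs e this.1
  -- the Sylow subgroup moves it by the central involution only
  have hmove : ∀ t ∈ (T : Subgroup H), t * e * t⁻¹ = e ∨ t * e * t⁻¹ = d.z * e := fun t ht => by
    have h := (d.conj_mem_Z heE (h := t)).1 (by rw [hew]; exact hwT t ht)
    rcases d.mem_Z.1 h with h | h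
    · exact Or.inl (mul_inv_eq_one.1 h)
    · exact Or.inr (mul_inv_eq_iff_eq_mul.1 h)
  have hcent : 2 ^ 20 ∣ Nat.card (Subgroup.centralizer ({e} : Set H)) := by
    set K := (Subgroup.centralizer ({e} : Set H)).subgroupOf (T : Subgroup H)
    have hmemK : ∀ t : (T : Subgroup H), t ∈ K ↔ (t : H) * e * (t : H)⁻¹ = e := fun t => by
      rw [Subgroup.mem_subgroupOf, Subgroup.mem_centralizer_singleton_iff]
      exact (mul_inv_eq_iff_eq_mul).symm
    have hidx : K.index ∣ 2 := by
      by_cases hall : K = ⊤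
      · rw [hall, Subgroup.index_top]; norm_num
      · obtain ⟨a, -, ha⟩ := SetLike.exists_of_lt (lt_top_iff_ne_top.2 hall)
        have hae : (a : H) * e * (a : H)⁻¹ = d.z * e :=
          (hmove a a.2).resolve_left fun h => ha ((hmemK a).2 h)
        rw [Subgroup.index_eq_two_iff_exists_notMem_and.2 ⟨a, ha, fun b => ?_⟩]
        rcases hmove b b.2 with h | h
        · exact Or.inr ((hmemK b).2 h)
        · refine Or.inl ((hmemK _).2 ?_)
          rw [Subgroup.coe_mul, show (b : H) * a * e * ((b : H) * a)⁻¹ =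
            b * (a * e * (a : H)⁻¹) * (b : H)⁻¹ by group, hae, show (b : H) * (d.z * e) * (b : H)⁻¹ =
            (b * d.z * (b : H)⁻¹) * (b * e * (b : H)⁻¹) by group, h,
            d.z_conj b (Subgroup.mem_zpowers _), ← mul_assoc, d.zz, one_mul]
    have hcard := Subgroup.card_mul_index K
    rw [card_sylow_two d T] at hcard
    have h20 : 2 ^ 20 ∣ Nat.card K := by
      rcases (Nat.dvd_prime Nat.prime_two).1 hidx with h | h <;> rw [h] at hcard <;>
        exact ⟨_, (by omega : Nat.card K = 2 ^ 20 * (Nat.card K / 2 ^ 20))⟩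
    refine h20.trans ?_
    rw [← Subgroup.card_map_of_injective (T : Subgroup H).subtype_injective]
    refine Subgroup.card_dvd_of_le ?_
    rintro _ ⟨t, ht, rfl⟩
    exact ht
  -- the element of order five
  obtain ⟨g, hgsyl⟩ : ∃ g : M, conjS g syl ≤ d.innPre T := by
    have hf : (443520 : ℕ).factorization 2 = 7 := by
      rw [show (443520 : ℕ) = 2 ^ 7 * 3465 by norm_num,
        Nat.factorization_mul (by norm_num) (by norm_num), Nat.Prime.factorization_pow Nat.prime_two]
      simp [Nat.factorization_eq_zero_of_not_dvd (by norm_num : ¬(2 ∣ 3465))]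
    let S₀ : Sylow 2 M := Sylow.ofCard syl (by
      rw [card_syl, CfsgLib.Mathieu.card_M22, hf]; norm_num)
    obtain ⟨g, hg⟩ := MulAction.exists_smul_eq M S₀ S
    refine ⟨g, ?_⟩
    rw [hS, ← hg, Sylow.coe_subgroup_smul]
    exact le_of_eq rfl
  have hwD : w ∈ d.rep.F (conjS g duad) := hwF _ (by
    rintro _ ⟨b, hb, rfl⟩
    rw [← map_mul, sq_duad b hb, map_one])
    ((Subgroup.map_mono Jf18.M22.duad_le_syl).trans hgsyl)
  rw [← d.rep.twist_F] at hwD
  obtain ⟨x, hx5, hx1, hxp, hxF⟩ := exists_five_fix_duad (d.rep.twist g)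
  have hxw : d.rep.act x w = w := hxF w hwD
  induction x using QuotientGroup.induction_on with
  | H c =>
    have hσ : d.sigma c = g * el duadFive * g⁻¹ := by
      have h : g⁻¹ * d.sigma c * g⁻¹⁻¹ = el duadFive := hxp
      rw [← h]; group
    have hc5 : (c : H) ^ 5 ∈ d.Z := by
      rw [← QuotientGroup.mk_pow, QuotientGroup.eq_one_iff] at hx5
      simpa [Subgroup.mem_subgroupOf] using hx5
    have hc10 : (c : H) ^ 10 = 1 := by
      rw [show 10 = 5 * 2 by rfl, pow_mul, pow_two]
      rcases d.mem_Z.1 hc5 with h | h <;> rw [h]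
      exacts [one_mul 1, d.zz]
    set q := (c : H) ^ 6
    have hq5 : q ^ 5 = 1 := by rw [← pow_mul, show 6 * 5 = 10 * 3 by rfl, pow_mul, hc10, one_pow]
    have hq1 : q ≠ 1 := fun h => hx1 (by
      rw [show (QuotientGroup.mk c : d.X) = (QuotientGroup.mk c) ^ 6 by rw [pow_succ, hx5, one_mul],
        ← QuotientGroup.mk_pow, QuotientGroup.eq_one_iff, Subgroup.mem_subgroupOf,
        Subgroup.coe_pow]
      show q ∈ d.Z
      rw [h]; exact one_mem _)
    have hqC : q ∈ d.C := pow_mem c.2 6
    -- the action of the element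
    have hcw : d.actH (c : H) w = w := hxw
    have hqw : d.actH q w = w := by
      have : ∀ n : ℕ, d.actH ((c : H) ^ n) w = w := fun n => by
        induction n with
        | zero => rw [pow_zero]; exact d.actHom_one w
        | succ n ih => rw [pow_succ', map_mul, MulAut.mul_apply, ih, hcw]
      exact this 6
    have hqe : Commute e q := by
      have hqw' := hqw
      rw [← hew, d.conj_mem_Z heE] at hqw'
      rcases d.mem_Z.1 hqw' with h | h
      · exact ((mul_inv_eq_iff_eq_mul.1 (mul_inv_eq_one.1 h))).symm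
      · exfalso
        have hstep : ∀ n : ℕ, q ^ n * e * (q ^ n)⁻¹ = d.z ^ n * e := fun n => by
          induction n with
          | zero => simp
          | succ n ih =>
            rw [pow_succ' q, show q * q ^ n * e * (q * q ^ n)⁻¹ = q * (q ^ n * e * (q ^ n)⁻¹) * q⁻¹ by
              group, ih, show q * (d.z ^ n * e) * q⁻¹ = (q * d.z ^ n * q⁻¹) * (q * e * q⁻¹) by group,
              mul_inv_eq_iff_eq_mul.1 h, d.z_conj q (pow_mem (Subgroup.mem_zpowers _) n), pow_succ,
              mul_assoc]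
        have h5 := hstep 5
        rw [hq5, show d.z ^ 5 = d.z by simp [pow_succ, d.zz]] at h5
        simp at h5
        exact d.zne h5
    -- the element inducing an element of order three
    obtain ⟨a, ha, ha2, ha3⟩ := exists_involution_three
    have hga : g * a * g⁻¹ ∈ conjS g syl := ⟨a, ha, rfl⟩
    obtain ⟨t, ht, hta⟩ := d.mem_innPre.1 (hgsyl hga)
    obtain ⟨ct, -, hte, -, -⟩ := d.decomp T ht hta (by
      rw [show g * a * g⁻¹ * (g * a * g⁻¹) = g * (a * a) * g⁻¹ by group, ha2]; group)
    have htp : ∀ v : d.W, d.actH t (d.actH d.p v) = d.actH d.p (d.actH t v) := fun v => by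
      rw [d.act_decomp hte, d.act_decomp hte]
      exact d.rep.act_comm _ v
    have hqp : Commute q d.p := d.mem_C.1 hqC
    have hyw : d.actH (t * q) w = w := by rw [map_mul, MulAut.mul_apply, hqw, hwT t ht]
    have hypw : d.actH (t * q) (d.actH d.p w) = d.actH d.p w := by
      rw [map_mul, MulAut.mul_apply,
        show d.actH q (d.actH d.p w) = d.actH d.p (d.actH q w) by
          rw [← MulAut.mul_apply, ← map_mul, hqp.eq, map_mul, MulAut.mul_apply],
        htp, hqw, hwT t ht]
    refine ⟨q, e, t * q, orderOf_eq_prime hq5 hq1, hqp, heE, hee, heZ, hqe, hcent,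
      (d.conj_mem_Z heE).1 (by rw [hew]; exact hyw), ?_, ?_⟩
    · refine (d.conj_mem_Z (d.normalE _ _ heE)).1 ?_
      rw [← d.actH_q d.p heE, hew]
      exact hypw
    · have hf : el duadFive ^ 5 = 1 := by
        have := congrArg (d.rep.twist g).proj hx5
        rwa [map_pow, hxp, map_one] at this
      have h6 : el duadFive ^ 6 = el duadFive := by rw [pow_succ, hf, one_mul]
      have hy : d.π (t * q) = MulAut.conj (g * (a * el duadFive) * g⁻¹) := by
        show d.π (t * (c : H) ^ 6) = _
        rw [map_mul, map_pow, ← d.conj_sigma, hσ, hta, ← map_pow, ← map_mul, conj_pow, h6]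
        exact congrArg MulAut.conj (by group)
      rw [hy, orderOf_injective _ conj_injective_M, ← MulAut.conj_apply,
        MulEquiv.orderOf_eq, ha3]

/-- The involution of the second orbit of the extraspecial group fixed by an element of order
five. -/
theorem exists_fixed_involution : ∃ q e : H, orderOf q = 5 ∧ e ∈ d.E ∧ e * e = 1 ∧ e ≠ 1 ∧
    e ≠ d.z ∧ Commute e q ∧ 2 ^ 20 ∣ Nat.card (Subgroup.centralizer ({e} : Set H)) := by
  obtain ⟨q, e, y, hq, -, he, hee, hz, hc, h20, -⟩ := exists_fixed_data d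
  exact ⟨q, e, hq, he, hee, fun h => hz (h ▸ one_mem _),
    fun h => hz (h ▸ Subgroup.mem_zpowers _), hc, h20⟩

end CfsgLib.J4Five49
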