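import Cfsg.Agent.J4Five49.Basic
import Cfsg.Agent.J4Facts21.M22
import Cfsg.Agent.J4Type67.Elementary

/-!
Finite facts on the elements of order five of `M22` and its automorphism group.
-/

set_option autoImplicit false

namespace CfsgLib.J4Five49

open CfsgLib.J4Type67

theorem five_mem_inn {a : MulAut M} (ha : orderOf a = 5) :
    a ∈ (MulAut.conj : M →* MulAut M).range := by
  have h2 := Subgroup.sq_mem_of_index_two J4Type67.inn_index a
  have h6 := Subgroup.pow_mem _ h2 3
  rwa [← pow_mul, show 2 * 3 = 1 + 5 by rfl, pow_add, pow_one, ← ha, pow_orderOf_eq_one,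
    mul_one] at h6

theorem card_cent_five {a : MulAut M} (ha : orderOf a = 5) :
    Nat.card (Subgroup.centralizer ({a} : Set (MulAut M))) = 10 := by
  obtain ⟨f, rfl⟩ := five_mem_inn ha
  rw [orderOf_injective _ J4Type67.conj_injective_M] at ha
  exact J4Facts21.five_autCent ha

theorem exists_frobenius_twenty :
    ∃ f g : M, orderOf f = 5 ∧ g ^ 4 = 1 ∧ g * f * g⁻¹ = f * f := by
  haveI : Fact (Nat.Prime 5) := ⟨by norm_num⟩
  obtain ⟨f, hf⟩ := exists_prime_orderOf_dvd_card' (G := M) 5 (by
    rw [CfsgLib.Mathieu.card_M22]; norm_num)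
  obtain ⟨g, hg4, hg⟩ := J4Facts21.five_square hf
  exact ⟨f, g, hf, hg4 ▸ pow_orderOf_eq_one g, by rw [hg, pow_two]⟩

theorem exists_square_conj {f : M} (hf : orderOf f = 5) : ∃ g : M, g * f * g⁻¹ = f * f := by
  obtain ⟨g, -, hg⟩ := J4Facts21.five_square hf
  exact ⟨g, by rw [hg, pow_two]⟩

theorem card_autM22 : Nat.card (MulAut M) = 887040 := by
  rw [← Subgroup.card_mul_index (MulAut.conj : M →* MulAut M).range, J4Type67.inn_index,
    ← Nat.card_congr (MonoidHom.ofInjective J4Type67.conj_injective_M).toEquiv,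
    CfsgLib.Mathieu.card_M22]

theorem not_twentyfive_dvd : ¬ 25 ∣ Nat.card (MulAut M) := by
  rw [card_autM22]; norm_num

end CfsgLib.J4Five49
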